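import Cfsg.Agent.Cam.E8.Crf

/-!
# S3690, the row `E₈`: a common apartment whose torus centralizes the group (helper59)
-/

set_option autoImplicit false
set_option maxRecDepth 100000

namespace Cfsg.Agent.Cam.E8.Apt

open Cfsg Cfsg.Lie Subgroup
open Cfsg.Agent.E8A Cfsg.Agent.E8A.Kem Cfsg.Agent.E8A.Par
open Cfsg.Agent.H288.E8L (wt)
open Cfsg.Agent.Cam.E8K (Co Tr tr_iff tr_of exists_apt dec eq_one_of_Ru')

variable {K : Type} [Field K]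

theorem exists_small {α : Type} [Finite α] (f g : α → ℝ) :
    ∃ ε : ℝ, 0 < ε ∧ ∀ i j, f j < f i → f j + ε * g j < f i + ε * g i := by
  obtain ⟨B, hB⟩ := (Set.finite_range fun ij : α × α => (g ij.2 - g ij.1) / (f ij.1 - f ij.2)).bddAbove
  have h0 : 0 < max B 0 + 1 := by positivity
  refine ⟨(max B 0 + 1)⁻¹, inv_pos.2 h0, fun i j h => ?_⟩
  have h1 : (g j - g i) / (f i - f j) < max B 0 + 1 := ((hB ⟨(i, j), rfl⟩).trans (le_max_left _ _)).trans_lt (lt_add_one _)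
  rw [div_lt_iff₀ (sub_pos.2 h), ← inv_mul_lt_iff₀ h0] at h1
  linarith

/-- a small perturbation of a cocharacter -/
theorem exists_nu (l₁ l₂ : Co) : ∃ ν : Co, St K l₁ ⊓ St K l₂ ≤ St K ν ∧ St K ν ≤ St K l₁ ∧
    Lv K ν ≤ Lv K l₁ ⊓ Lv K l₂ := by
  obtain ⟨ε, hε, h⟩ := exists_small (fun i => l₁ (wt i)) fun i => l₂ (wt i)
  have e : ∀ a, (l₁ + ε • l₂) a = l₁ a + ε * l₂ a := fun _ => rfl
  have h1 : ∀ i j, (l₁ + ε • l₂) (wt j) ≤ (l₁ + ε • l₂) (wt i) → l₁ (wt j) ≤ l₁ (wt i) := fun i j k =>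
    not_lt.1 fun k' => (h j i k').not_ge k
  have h2 : ∀ i j, (l₁ + ε • l₂) (wt j) = (l₁ + ε • l₂) (wt i) → l₁ (wt j) = l₁ (wt i) ∧ l₂ (wt j) = l₂ (wt i) :=
    fun i j k => by
      have h3 := le_antisymm (h1 i j k.le) (h1 j i k.ge)
      rw [e, e, h3, add_right_inj] at k
      exact ⟨h3, mul_left_cancel₀ hε.ne' k⟩
  have h3 : ∀ y : G8 K, y ∈ St K l₁ ⊓ St K l₂ → Up (l₁ + ε • l₂) (l₁ + ε • l₂) (mx y) := fun y hy i j hij =>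
    add_le_add (up_of_St hy.1 i j hij) (mul_le_mul_of_nonneg_left (up_of_St hy.2 i j hij) hε.le)
  refine ⟨l₁ + ε • l₂, fun y hy => mem_St (h3 y hy) (h3 _ (inv_mem hy)), fun y hy =>
    mem_St (fun i j k => h1 i j (up_of_St hy i j k)) fun i j k => h1 i j (up_of_St (inv_mem hy) i j k), fun y hy => ?_⟩
  have h4 := E8K.bl_lev hy
  exact ⟨(E8K.bl_of (fun i j k => (h2 i j (h4.eq k)).1) fun i j k => (h2 i j (h4.inv.eq k)).1).lev,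
    (E8K.bl_of (fun i j k => (h2 i j (h4.eq k)).2) fun i j k => (h2 i j (h4.inv.eq k)).2).lev⟩

/-- two filtrations in the standard apartment -/
theorem apt0 {A : Subgroup (G8 K)} (h : CR A) {g : G8 K} {l₁ l₂ : Co} (h₁ : In g A (St K l₁)) (h₂ : In g A (St K l₂)) :
    ∃ r ∈ St K l₁ ⊓ St K l₂, In (r * g) A (Lv K l₁ ⊓ Lv K l₂) := by
  obtain ⟨ν, n1, n2, n3⟩ := exists_nu (K := K) l₁ l₂
  obtain ⟨r, hr, h3⟩ := h g ν fun a ha => n1 ⟨h₁ a ha, h₂ a ha⟩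
  rw [Crf.Ru_eq] at hr
  obtain ⟨s, hs, t, -, hs', ht', e⟩ := dec l₂ (inv_mem hr)
  refine ⟨s⁻¹, inv_mem ⟨n2 hs.1, hs'⟩, fun a ha => ?_⟩
  have h4 := n3 (h3 a ha)
  have e1 : s⁻¹ * g = t * (r * g) := by rw [← inv_inv r, e]; group
  have h5 : s⁻¹ * g * a * (s⁻¹ * g)⁻¹ ∈ St K l₂ := by
    rw [show s⁻¹ * g * a * (s⁻¹ * g)⁻¹ = s⁻¹ * (g * a * g⁻¹) * s by group]
    exact mul_mem (mul_mem (inv_mem hs') (h₂ a ha)) hs'
  rw [e1, show t * (r * g) * a * (t * (r * g))⁻¹ = t * (r * g * a * (r * g)⁻¹) * t⁻¹ by group] at h5 ⊢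
  generalize r * g * a * (r * g)⁻¹ = m at h4 h5
  have h6 : t * (m * t⁻¹ * m⁻¹) = 1 := eq_one_of_Ru' (mul_mem ht' ((tr_of h4.2.2).conj_Ru (inv_mem ht'))) (by
    rw [show t * (m * t⁻¹ * m⁻¹) = t * m * t⁻¹ * m⁻¹ by group]
    exact mul_mem h5 (inv_mem h4.2.1))
  rwa [show t * m * t⁻¹ = t * (m * t⁻¹ * m⁻¹) * m by group, h6, one_mul]

theorem pt_iff {g g' : G8 K} {l l' : Co} : Pt g l g' l' ↔ Tr l l' (g' * g⁻¹) := by
  rw [Tr, _root_.mul_inv_rev, inv_inv]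
  rfl

/-- **Box `Apt`.** -/
theorem boxApt : BoxApt := by
  intro K _ A h g₁ g₂ l₁ l₂ h₁ h₂
  obtain ⟨z, hz, w, hw⟩ := exists_apt l₁ l₂ (g₁ * g₂⁻¹)
  obtain ⟨r, hr, h3⟩ := apt0 h (g := z * g₁) (l₁ := l₁) (l₂ := cw l₂ w) (fun a ha => by
    rw [show z * g₁ * a * (z * g₁)⁻¹ = z * (g₁ * a * g₁⁻¹) * z⁻¹ by group]
    exact (tr_of hz).conj (h₁ a ha)) fun a ha => by
    rw [show z * g₁ * a * (z * g₁)⁻¹ = z * (g₁ * g₂⁻¹) * (g₂ * a * g₂⁻¹) * (z * (g₁ * g₂⁻¹))⁻¹ by group]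
    exact hw.conj (h₂ a ha)
  refine ⟨_, _, _, pt_iff.2 ?_, pt_iff.2 ?_, h3⟩
  · rw [show r * (z * g₁) * g₁⁻¹ = r * z by group]
    exact tr_of (mul_mem hr.1 hz)
  · rw [show r * (z * g₁) * g₂⁻¹ = r * (z * (g₁ * g₂⁻¹)) by group]
    exact (tr_of hr.2).mul hw

end Cfsg.Agent.Cam.E8.Apt
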